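import Mathlib
import Cfsg.Agent.Lib.Helper99.GUSP.Defs
import Cfsg.Agent.Lib.Helper40.SpImprim
import Cfsg.Agent.Lib.Helper13.Symp

/-!
# GUSP (S5976), package [DERA]

`r` an odd prime `≠ p`, the order `i` of `q` mod `r` odd and `≤ d`: an element `x ∈ Sp_{2d}(q)` of
order `r` with characteristic polynomial `(X - 1)^(2d-2i) π₀ π₀†` (`π₀ ≠ π₀†`) is a derangement:
`ker π₀(x)` has odd dimension `i`, so no `α` with `α² = a` a non-square commutes with `x`.
-/

set_option autoImplicit false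

namespace Cfsg.Agent.Lib.Helper45.GUSP

open Matrix Polynomial Cfsg Cfsg.Agent.Lib.Helper99.GUSP Cfsg.Agent.Lib.Helper40
  Cfsg.Agent.Lib.Helper40.PrimeOrderGL Cfsg.Agent.Lib.Helper40.SpImprim

universe u

section tools

variable {F : Type u} [Field F]

/-- Distinct monic irreducible polynomials are coprime. -/
theorem dera_coprime {π₁ π₂ : F[X]} (h1 : π₁.Monic) (h2 : π₂.Monic) (hi1 : Irreducible π₁)
    (hi2 : Irreducible π₂) (hne : π₁ ≠ π₂) : IsCoprime π₁ π₂ := by
  rw [hi1.coprime_iff_not_dvd]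
  intro hd
  exact hne (eq_of_monic_of_associated h1 h2 (hi1.associated_of_dvd hi2 hd))

theorem dera_aeval_toLin' {ι : Type} [Fintype ι] [DecidableEq ι] (M : Matrix ι ι F)
    (p : F[X]) : aeval (Matrix.toLin' M) p = Matrix.toLin' (aeval M p) :=
  Polynomial.aeval_algHom_apply (Matrix.toLinAlgEquiv' : Matrix ι ι F ≃ₐ[F] _).toAlgHom M p

/-- A polynomial in `M` commutes with everything commuting with `M`. -/
theorem dera_commute {ι : Type} [Fintype ι] [DecidableEq ι] (M α : Matrix ι ι F)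
    (h : M * α = α * M) (p : F[X]) : aeval M p * α = α * aeval M p := by
  have h1 : Algebra.adjoin F {M} ≤ Subalgebra.centralizer F {α} := by
    apply Algebra.adjoin_le
    intro y hy
    rw [Set.mem_singleton_iff] at hy
    subst hy
    rw [SetLike.mem_coe, Subalgebra.mem_centralizer_iff]
    intro g hg
    rw [Set.mem_singleton_iff] at hg
    subst hg
    exact h.symm
  have h2 := h1 (Polynomial.aeval_mem_adjoin_singleton F M (p := p))
  rw [Subalgebra.mem_centralizer_iff] at h2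
  exact (h2 α rfl).symm

/-- For a scalar matrix `z • 1`, a polynomial `π` with `ker π(z • 1) ≠ 0` has `π(z) = 0`. -/
theorem dera_scalar {ι : Type} [Fintype ι] [DecidableEq ι] (z : F) (π : F[X])
    (h : Module.finrank F (LinearMap.ker (aeval (Matrix.toLin' (z • (1 : Matrix ι ι F))) π)) ≠ 0) :
    π.eval z = 0 := by
  by_contra hne
  apply h
  have h1 : aeval (z • (1 : Matrix ι ι F)) π = (π.eval z) • (1 : Matrix ι ι F) := by
    rw [← Algebra.algebraMap_eq_smul_one, Polynomial.aeval_algebraMap_apply,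
      Algebra.algebraMap_eq_smul_one, Polynomial.coe_aeval_eq_eval]
  have h2 : LinearMap.ker (aeval (Matrix.toLin' (z • (1 : Matrix ι ι F))) π) = ⊥ := by
    rw [dera_aeval_toLin', h1, LinearMap.ker_eq_bot']
    intro v hv
    rw [Matrix.toLin'_apply, Matrix.smul_mulVec, Matrix.one_mulVec] at hv
    exact (smul_eq_zero.1 hv).resolve_left hne
  rw [h2, finrank_bot]

end tools

/-- The kernel of `π₀(M)` has dimension `i`. -/
theorem dera_finrank {F : Type u} [Field F] [Fintype F] {d r i : ℕ} {S : Finset F[X]}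
    (hS : Factors S r i) (hrF : (r : F) ≠ 0) (M : Matrix (SI d) (SI d) F) (hM : M ^ r = 1)
    (π₀ π₁ : F[X]) (h0 : π₀ ∈ S) (h1 : π₁ ∈ S) (hne : π₀ ≠ π₁) (a : S → ℕ)
    (hχ : M.charpoly = chi S a (2 * d - 2 * i)) (hd0 : π₀ ∣ M.charpoly) (hd1 : π₁ ∣ M.charpoly)
    (hid : i ≤ d) :
    Module.finrank F (LinearMap.ker (aeval (Matrix.toLin' M) π₀)) = i := by
  classical
  obtain ⟨f, hf⟩ : ∃ f : Module.End F (SI d → F), f = Matrix.toLin' M := ⟨_, rfl⟩
  rw [← hf]
  have hfr : f ^ r = 1 := by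
    rw [hf, SpImprim.toLin_pow, hM]
    exact Matrix.toLin'_one
  have hFx : Module.finrank F (fixS f) = 2 * d - 2 * i := by
    rw [hf]
    exact finrank_fix_of_chi hS hrF M hM a _ hχ
  have hFx' : fixS f = LinearMap.ker (aeval f (X - C 1 : F[X])) := by
    unfold fixS
    congr 1
    simp
  have hX1 : (X - C 1 : F[X]).Monic := monic_X_sub_C 1
  have hX1i : Irreducible (X - C 1 : F[X]) := irreducible_X_sub_C 1
  have hne0 : π₀ ≠ X - C 1 := fun h => hS.notMem (h ▸ h0)
  have hne1 : π₁ ≠ X - C 1 := fun h => hS.notMem (h ▸ h1)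
  have c01 : IsCoprime π₀ π₁ :=
    dera_coprime (hS.monic π₀ h0) (hS.monic π₁ h1) (hS.irred π₀ h0) (hS.irred π₁ h1) hne
  have c0 : IsCoprime π₀ (X - C 1) :=
    dera_coprime (hS.monic π₀ h0) hX1 (hS.irred π₀ h0) hX1i hne0
  have c1 : IsCoprime π₁ (X - C 1) :=
    dera_coprime (hS.monic π₁ h1) hX1 (hS.irred π₁ h1) hX1i hne1
  -- the kernels are invariant, meet the fixed space trivially, and are nonzero
  have key : ∀ π : F[X], π ∈ S → π ∣ M.charpoly → IsCoprime π (X - C 1) →
      i ≤ Module.finrank F (LinearMap.ker (aeval f π)) := by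
    intro π hπ hdvd hc
    have hinv : (LinearMap.ker (aeval f π)).map f ≤ LinearMap.ker (aeval f π) := by
      rintro _ ⟨w, hw, rfl⟩
      rw [SetLike.mem_coe, LinearMap.mem_ker] at hw
      rw [LinearMap.mem_ker]
      have hcomm : aeval f π * f = f * aeval f π := by
        have h3 := (Commute.all π (X : F[X])).map (aeval f)
        rw [aeval_X] at h3
        exact h3
      have h4 : aeval f π (f w) = (aeval f π * f) w := rfl
      rw [h4, hcomm, Module.End.mul_apply, hw, map_zero]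
    have hbot : LinearMap.ker (aeval f π) ⊓ fixS f = ⊥ := by
      rw [hFx']
      exact (Polynomial.disjoint_ker_aeval_of_isCoprime f hc).eq_bot
    have hdv := dvd_sub_fix hS hrF f hfr _ hinv
    rw [hbot, finrank_bot, Nat.sub_zero] at hdv
    obtain ⟨v, hv, hv0⟩ := exists_ne_zero_aeval_eq_zero f π (hS.irred π hπ)
      (by rw [hf, Matrix.charpoly_toLin']; exact hdvd)
    have hpos : 0 < Module.finrank F (LinearMap.ker (aeval f π)) := by
      rw [Module.finrank_pos_iff_exists_ne_zero]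
      refine ⟨⟨v, hv0⟩, ?_⟩
      intro h
      exact hv (congrArg Subtype.val h)
    exact Nat.le_of_dvd hpos hdv
  have k0 := key π₀ h0 hd0 c0
  have k1 := key π₁ h1 hd1 c1
  -- independence
  have hsum : Module.finrank F (LinearMap.ker (aeval f π₀)) +
      Module.finrank F (LinearMap.ker (aeval f π₁)) + (2 * d - 2 * i) ≤ 2 * d := by
    have e1 := Submodule.finrank_sup_add_finrank_inf_eq (LinearMap.ker (aeval f π₀))
      (LinearMap.ker (aeval f π₁))
    rw [(Polynomial.disjoint_ker_aeval_of_isCoprime f c01).eq_bot, finrank_bot, add_zero,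
      Polynomial.sup_ker_aeval_eq_ker_aeval_mul_of_coprime f c01] at e1
    have c2 : IsCoprime (π₀ * π₁) (X - C 1) := IsCoprime.mul_left c0 c1
    have e2 := Submodule.finrank_sup_add_finrank_inf_eq (LinearMap.ker (aeval f (π₀ * π₁)))
      (LinearMap.ker (aeval f (X - C 1 : F[X])))
    rw [(Polynomial.disjoint_ker_aeval_of_isCoprime f c2).eq_bot, finrank_bot, add_zero,
      ← hFx', hFx, e1] at e2
    have e3 := Submodule.finrank_le (LinearMap.ker (aeval f (π₀ * π₁)) ⊔ fixS f)
    rw [Module.finrank_fintype_fun_eq_card, Fintype.card_sum, Fintype.card_fin] at e3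
    omega
  omega

/-- **[DERA]** -/
theorem pkgDerA : PkgDerA.{u} := by
  intro hEven F _ _ p _ _ _ d r hr hr2 hrp hio hid
  classical
  have hfr : Fact r.Prime := ⟨hr⟩
  have hp : p.Prime := Fact.out
  obtain ⟨i, hi⟩ : ∃ i, i = orderOf ((Fintype.card F : ℕ) : ZMod r) := ⟨_, rfl⟩
  rw [← hi] at hio hid
  obtain ⟨S, dg, hS, hSne, hdg, hdd, -, hoddg⟩ :=
    exists_data (F := F) (p := p) rfl r hr2 hrp i hi
  obtain ⟨π₀, hπ₀⟩ := hSne
  obtain ⟨P0, hP0⟩ : ∃ P0 : S, P0 = ⟨π₀, hπ₀⟩ := ⟨_, rfl⟩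
  have hP01 : dg P0 ≠ P0 := hoddg hio P0
  obtain ⟨a, ha⟩ : ∃ a : S → ℕ, a = fun π => if π = P0 ∨ π = dg P0 then 1 else 0 := ⟨_, rfl⟩
  have hadg : ∀ π, a (dg π) = a π := by
    intro π
    rw [ha]
    have h1 : (dg π = P0 ∨ dg π = dg P0) ↔ (π = P0 ∨ π = dg P0) := by
      constructor
      · rintro (h | h)
        · right
          rw [← h, hdd]
        · left
          have h2 := congrArg dg h
          rwa [hdd, hdd] at h2
      · rintro (h | h)
        · right
          rw [h]
        · left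
          rw [h, hdd]
    simp only [h1]
  have hsum : ∑ π, a π = 2 := by
    rw [ha]
    have h1 : (Finset.univ.filter (fun π : S => π = P0 ∨ π = dg P0)) = {P0, dg P0} := by
      ext π
      simp
    rw [Finset.sum_ite, Finset.sum_const_zero, add_zero, Finset.sum_const, smul_eq_mul, mul_one,
      h1, Finset.card_pair hP01.symm]
  have hle : i * ∑ π, a π ≤ 2 * d := by
    rw [hsum]
    omega
  obtain ⟨g, hgr, hgχ⟩ := exists_sp_chi p hS hr hr2 dg hdg d a hadg hle
  rw [hsum] at hgχ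
  obtain ⟨M, hMdef⟩ : ∃ M : Matrix (SI d) (SI d) F, M = g.1 := ⟨_, rfl⟩
  rw [← hMdef] at hgr hgχ
  have hMsp : M ∈ Matrix.symplecticGroup (Fin d) F := by
    rw [hMdef]
    exact g.2
  have hrF : (r : F) ≠ 0 := by
    intro h
    have h1 := (CharP.cast_eq_zero_iff F p r).1 h
    exact hrp ((Nat.prime_dvd_prime_iff_eq hp hr).1 h1).symm
  have hprod : ∀ π : S, a π = 1 → π.1 ∣ M.charpoly := by
    intro π hπ
    rw [hgχ]
    unfold chi
    apply Dvd.dvd.mul_left
    have h1 : π.1 ^ a π ∣ ∏ π' : S, π'.1 ^ a π' :=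
      Finset.dvd_prod_of_mem (fun π' : S => π'.1 ^ a π') (Finset.mem_univ π)
    rw [hπ, pow_one] at h1
    exact h1
  have ha0 : a P0 = 1 := by
    rw [ha]
    simp
  have ha1 : a (dg P0) = 1 := by
    rw [ha]
    simp
  have hχ' : M.charpoly = chi S a (2 * d - 2 * i) := by rw [hgχ, mul_comm i 2]
  have hP0v : (P0 : F[X]) = π₀ := by rw [hP0]
  have hne01 : π₀ ≠ (dg P0 : F[X]) := by
    intro h
    apply hP01
    apply Subtype.ext
    rw [← h, hP0v]
  have hd0 : π₀ ∣ M.charpoly := by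
    rw [← hP0v]
    exact hprod P0 ha0
  have hfin0 := dera_finrank hS hrF M hgr π₀ (dg P0).1 hπ₀ (dg P0).2 hne01 a hχ' hd0
    (hprod (dg P0) ha1) hid
  have hfin1 := dera_finrank hS hrF M hgr (dg P0).1 π₀ (dg P0).2 hπ₀ hne01.symm a hχ'
    (hprod (dg P0) ha1) hd0 hid
  have hipos : 0 < i := hio.pos
  have hunit1 : M * M ^ (r - 1) = 1 := by
    rw [← pow_succ', Nat.sub_add_cancel hr.one_le, hgr]
  have hunit2 : M ^ (r - 1) * M = 1 := by
    rw [← pow_succ, Nat.sub_add_cancel hr.one_le, hgr]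
  refine ⟨⟨M, M ^ (r - 1), hunit1, hunit2⟩, ?_, hgr, ?_, ?_⟩
  · intro u v
    exact Cfsg.Agent.Lib.Helper13.sympForm_mulVec_of_mem d hMsp u v
  · intro z hz
    have hz' : M = z • (1 : Matrix (SI d) (SI d) F) := hz
    rw [hz'] at hfin0 hfin1
    have e0 := dera_scalar z π₀ (by rw [hfin0]; omega)
    have e1 := dera_scalar z (dg P0).1 (by rw [hfin1]; omega)
    obtain ⟨s, t, hst⟩ := dera_coprime (hS.monic π₀ hπ₀) (hS.monic _ (dg P0).2)
      (hS.irred π₀ hπ₀) (hS.irred _ (dg P0).2) hne01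
    have h3 := congrArg (Polynomial.eval z) hst
    rw [eval_add, eval_mul, eval_mul, e0, e1, mul_zero, mul_zero, add_zero, eval_one] at h3
    exact zero_ne_one h3
  · intro a' α hsq hα hPM
    have hPM' : M * α = α * M ∨ M * α = -(α * M) := hPM
    have hcomm : M * α = α * M := by
      rcases hPM' with hc | hc
      · exact hc
      · have h2 : (M * M) * α = α * (M * M) := by
          calc (M * M) * α = -(M * (α * M)) := by rw [mul_assoc, hc, mul_neg]
            _ = α * (M * M) := by rw [← mul_assoc M α M, hc, neg_mul, neg_neg, mul_assoc]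
        obtain ⟨k, hk⟩ := hr.odd_of_ne_two hr2
        have hMk : (M * M) ^ (k + 1) = M := by
          rw [← pow_two, ← pow_mul, show 2 * (k + 1) = r + 1 by omega, pow_succ, hgr, one_mul]
        have h3 : Commute ((M * M) ^ (k + 1)) α := Commute.pow_left h2 (k + 1)
        rw [hMk] at h3
        exact h3
    have hinv : ∀ w ∈ LinearMap.ker (aeval (Matrix.toLin' M) π₀),
        α *ᵥ w ∈ LinearMap.ker (aeval (Matrix.toLin' M) π₀) := by
      intro w hw
      rw [LinearMap.mem_ker, dera_aeval_toLin', Matrix.toLin'_apply] at hw ⊢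
      rw [Matrix.mulVec_mulVec, dera_commute M α hcomm π₀, ← Matrix.mulVec_mulVec, hw,
        Matrix.mulVec_zero]
    have hev := hEven d a' α hsq hα.1 _ hinv
    rw [hfin0] at hev
    exact (Nat.not_even_iff_odd.2 hio) hev

end Cfsg.Agent.Lib.Helper45.GUSP
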